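import Cfsg.Agent.PF.S04a

/-! Glue between the ambient style and statements about a whole group. -/

set_option autoImplicit false
set_option linter.unusedSectionVars false
set_option linter.unusedVariables false

namespace Cfsg.Agent.PF

open Subgroup Cfsg.Agent.GT Cfsg.Agent.BG Cfsg.Agent.Char

universe u v w

variable {G : Type u} [Group G] [Fintype G] {K W₁ W₂ : Subgroup G}

theorem indFun_top {β : (⊤ : Subgroup G) → ℂ} (hβ : IsClassFunction (⊤ : Subgroup G) β) :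
    indFun ⊤ β = fun g => β ⟨g, trivial⟩ :=
  indFun_top_apply (θ := fun g => β ⟨g, trivial⟩) (hβ.comp topEquiv.symm.toMonoidHom)

theorem indFun_eq_cInd_top (θ : K → ℂ) : indFun K θ = fun g => cInd ⊤ θ ⟨g, trivial⟩ := by
  rw [← indFun_cInd (L := ⊤) le_top, indFun_top (isClassFunction_cInd θ)]

theorem isIrr_of_top {β : (⊤ : Subgroup G) → ℂ} (hβ : IsIrrCharacter (⊤ : Subgroup G) β) :
    IsIrrCharacter G (fun g => β ⟨g, trivial⟩) := hβ.comp_equiv topEquiv.symm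

theorem isIrr_to_top {β : G → ℂ} (hβ : IsIrrCharacter G β) :
    IsIrrCharacter (⊤ : Subgroup G) (fun g => β g) := hβ.comp_equiv topEquiv

theorem primeTI_top [hK : K.Normal] (hKW₁ : K ⊓ W₁ = ⊥) (hKW₁' : K ⊔ W₁ = ⊤) (hW₁ : W₁ ≠ ⊥)
    (hW₁c : IsCyclic W₁) (hHall : Nat.Coprime (Nat.card W₁) W₁.index) (hW₂ : W₂ ≠ ⊥)
    (hW₂c : IsCyclic W₂) (hW₂K : W₂ ≤ K)
    (hC : ∀ x ∈ W₁, x ≠ 1 → K ⊓ Subgroup.centralizer ({x} : Set G) = W₂)
    (hodd : Odd (Nat.card ↥(W₁ ⊔ W₂))) : PrimeTI ⊤ K W₁ W₂ := by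
  have hs : Sdprod K W₁ ⊤ := sdprod_mk le_norm_of_normal hKW₁ hKW₁'
  refine ⟨hs, hW₁, ?_, hW₁c, hW₂, hW₂K, hW₂c, hC,
    (hodd.of_dvd_nat (card_dvd_of_le le_sup_left)).mul (hodd.of_dvd_nat (card_dvd_of_le le_sup_right))⟩
  rw [← hs.relIndex_right, relIndex_top_right]; exact hHall.symm

theorem ind_wG_eq_indFun (h : Dprod W₁ W₂ (W₁ ⊔ W₂)) (α : ↥(W₁ ⊔ W₂) → ℂ) :
    ind (wG W₁ W₂) (fun w => α (wL (W₁ ⊔ W₂) W₁ W₂ w)) = indFun (W₁ ⊔ W₂) α := by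
  have hb : Function.Bijective (wL (W₁ ⊔ W₂) W₁ W₂) :=
    ⟨fun v w hvw => wG_injective h.cent h.inf_eq (by
      rw [← coe_wL le_sup_left le_sup_right, hvw, coe_wL le_sup_left le_sup_right]),
      fun x => (mem_range_wL le_sup_left le_sup_right).2 (by rw [wG_range h.cent]; exact x.2)⟩
  rw [indFun_eq_ind, ← ind_comp_equiv _ (MulEquiv.ofBijective _ hb),
    ← subtype_comp_wL le_sup_left le_sup_right]
  rfl

end Cfsg.Agent.PF
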