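import Cfsg.Agent.PF.S06
import Cfsg.Agent.PF.S04Top

set_option autoImplicit false
set_option linter.unusedSectionVars false
set_option linter.unusedVariables false

namespace Cfsg.Agent.PF

open Subgroup Cfsg.Agent.GT Cfsg.Agent.BG Cfsg.Agent.Char

universe u v w

/-! Transport of coherence along isomorphisms, to apply §6 to an abstract group `L`. -/

section
variable {L : Type u} [Group L] [Fintype L] {L' : Type w} [Group L'] [Fintype L'] {X : Type v}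
  [Group X] [Fintype X] {S : Set (L → ℂ)}

/-- pull-back of functions along an isomorphism -/
def pb (e : L ≃* L') : (L' → ℂ) →ₗ[ℂ] (L → ℂ) := LinearMap.funLeft ℂ ℂ e

theorem pb_apply (e : L ≃* L') (φ : L' → ℂ) (x : L) : pb e φ x = φ (e x) := rfl

theorem pb_symm_pb (e : L ≃* L') (φ : L' → ℂ) : pb e.symm (pb e φ) = φ := by
  funext x; simp [pb_apply]

theorem pb_pb_symm (e : L ≃* L') (φ : L → ℂ) : pb e (pb e.symm φ) = φ := pb_symm_pb e.symm φ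

theorem pb_injective (e : L ≃* L') : Function.Injective (pb e) :=
  Function.LeftInverse.injective (pb_symm_pb e)

theorem pb_one (e : L ≃* L') (φ : L' → ℂ) : pb e φ 1 = φ 1 := by simp [pb_apply]

theorem ci_pb (e : L ≃* L') (φ ψ : L' → ℂ) : ⟪pb e φ, pb e ψ⟫ = ⟪φ, ψ⟫ :=
  ci_comp_equiv e.toEquiv φ ψ

theorem pb_mem_zspan (e : L ≃* L') {α : L' → ℂ} (h : α ∈ zspan (pb e ⁻¹' S)) :
    pb e α ∈ zspan S :=
  zspan_induction (P := fun α => pb e α ∈ zspan S) (fun _ h => mem_zspan_of_mem h)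
    (by rw [map_zero]; exact zero_mem_zspan S)
    (fun _ _ _ _ h h' => by rw [map_add]; exact add_mem_zspan h h')
    (fun n _ _ h => by rw [map_zsmul]; exact zsmul_mem_zspan n h) h

theorem pb_mem_zspanOn (e : L ≃* L') {α : L' → ℂ} (h : α ∈ zspanOn (pb e ⁻¹' S) {1}ᶜ) :
    pb e α ∈ zspanOn S {1}ᶜ :=
  mem_zspanOn_one.2 ⟨pb_mem_zspan e h.1, by rw [pb_one]; exact (mem_zspanOn_one.1 h).2⟩

theorem pb_preimage_preimage (e : L ≃* L') : pb e.symm ⁻¹' (pb e ⁻¹' S) = S := by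
  ext φ; simp [pb_pb_symm]

theorem isometry_pb (e : L ≃* L') {τ : (L → ℂ) →ₗ[ℂ] (X → ℂ)}
    (h : IsLinearIsometryOn (zspanOn S {1}ᶜ) τ) :
    IsLinearIsometryOn (zspanOn (pb e ⁻¹' S) {1}ᶜ) (τ ∘ₗ pb e) :=
  isLinearIsometryOn_of_linearMap _ (fun α hα β hβ => by
    rw [LinearMap.comp_apply, LinearMap.comp_apply,
      h.ci_eq (pb_mem_zspanOn e hα) (pb_mem_zspanOn e hβ), ci_pb])
    fun α hα => h.virt (pb_mem_zspanOn e hα)

theorem Coh.pb (e : L ≃* L') {τ : (L → ℂ) →ₗ[ℂ] (X → ℂ)} (h : Coh S τ) :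
    Coh (pb e ⁻¹' S) (τ ∘ₗ pb e) := by
  obtain ⟨ν, h⟩ := h
  exact ⟨ν ∘ₗ PF.pb e, isLinearIsometryOn_zspan _ (fun α hα β hβ => by
    rw [LinearMap.comp_apply, LinearMap.comp_apply, h.ci_mem hα hβ, ci_pb])
    fun α hα => h.virt_mem hα, fun α hα => h.2 _ (pb_mem_zspanOn e hα)⟩

theorem coh_pb_iff (e : L ≃* L') {τ : (L → ℂ) →ₗ[ℂ] (X → ℂ)} :
    Coh (pb e ⁻¹' S) (τ ∘ₗ pb e) ↔ Coh S τ := by
  refine ⟨fun h => ?_, Coh.pb e⟩
  have := h.pb e.symm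
  rwa [pb_preimage_preimage, show (τ ∘ₗ pb e) ∘ₗ pb e.symm = τ from
    LinearMap.ext fun φ => by simp [pb_pb_symm]] at this

theorem _root_.Cfsg.IsCoherenceSystem.pb (e : L ≃* L') {τ : (L → ℂ) →ₗ[ℂ] (X → ℂ)}
    {Q : (L → ℂ) → Finset (X → ℂ)} (h : IsCoherenceSystem S τ Q) :
    IsCoherenceSystem (pb e ⁻¹' S) (τ ∘ₗ pb e) fun χ => Q (pb e χ) where
  nonempty := let ⟨φ, hφ⟩ := h.nonempty; ⟨PF.pb e.symm φ, by simpa [pb_pb_symm] using hφ⟩
  isCharacter χ hχ := pb_symm_pb e χ ▸ (h.isCharacter _ hχ).comp e.symm.toMonoidHom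
  conj_mem χ hχ := h.conj_mem _ hχ
  conj_ne χ hχ e' := h.conj_ne _ hχ (congrArg (PF.pb e) e')
  isometry := isometry_pb e h.isometry
  map_one α hα := h.map_one _ (pb_mem_zspanOn e hα)
  orthogonal χ hχ φ hφ hne := by
    rw [← ci_pb e]; exact h.orthogonal _ hχ _ hφ fun e' => hne (pb_injective e e')
  orthonormal χ hχ := h.orthonormal _ hχ
  virtual χ hχ := h.virtual _ hχ
  sum_eq χ hχ := h.sum_eq _ hχ
  disjoint χ hχ φ hφ h1 h2 := h.disjoint _ hχ _ hφ (by rwa [ci_pb]) (by rwa [← ci_pb e] at h2)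

end

variable {L : Type u} [Group L] [Fintype L] {K A : Subgroup L} {X : Type v} [Group X] [Fintype X]

theorem pb_top_cInd (θ : K → ℂ) : pb topEquiv.symm (cInd ⊤ θ) = indFun K θ :=
  (indFun_eq_cInd_top θ).symm

theorem pb_preimage_inducedIrrAbove (K A : Subgroup L) :
    pb topEquiv.symm ⁻¹' inducedIrrAbove K A = seqIndD K ⊤ K A := by
  ext φ
  constructor
  · rintro ⟨θ, hθ, h1, h2, e⟩
    exact ⟨θ, ⟨hθ, fun h => h1 ((inKer_self_iff hθ).1 h), h2⟩,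
      pb_injective topEquiv.symm (by rw [pb_top_cInd, e])⟩
  · rintro ⟨θ, ⟨hθ, h1, h2⟩, rfl⟩
    exact ⟨θ, hθ, ne_one_of_not_inKer h1, h2, pb_top_cInd θ⟩

theorem inducedIrrAbove_mono {B : Subgroup L} (h : B ≤ A) :
    inducedIrrAbove K A ⊆ inducedIrrAbove K B :=
  fun _ ⟨θ, hθ, h1, h2, e⟩ => ⟨θ, hθ, h1, fun a ha => h2 a (h ha), e⟩

theorem conj_inducedIrrAbove {φ : L → ℂ} (h : φ ∈ inducedIrrAbove K A) :
    conjFun φ ∈ inducedIrrAbove K A := by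
  rw [← pb_pb_symm topEquiv.symm φ] at h ⊢
  have h' : pb topEquiv.symm.symm φ ∈ seqIndD K ⊤ K A := pb_preimage_inducedIrrAbove K A ▸ h
  have h2 := conj_seqIndD h'
  rw [← pb_preimage_inducedIrrAbove] at h2
  exact h2

/-- a coherence system for `L` seen in ambient style -/
theorem exists_cohSys_top {τ : (L → ℂ) → X → ℂ} {R : (L → ℂ) → Finset (X → ℂ)}
    (h : IsCoherenceSystem (inducedIrrAbove K ⊥) τ R) :
    ∃ (T : ((⊤ : Subgroup L) → ℂ) →ₗ[ℂ] (X → ℂ)) (Q : _), IsCoherenceSystem (seqIndD K ⊤ K ⊥) T Q ∧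
      ∀ S ⊆ inducedIrrAbove K ⊥, (∀ φ ∈ S, conjFun φ ∈ S) →
        (IsCoherent S {1}ᶜ τ ↔ S.Nonempty ∧ Coh (pb topEquiv.symm ⁻¹' S) T) := by
  obtain ⟨T, hT, e⟩ := h.exists_linear
  refine ⟨_, _, pb_preimage_inducedIrrAbove K ⊥ ▸ hT.pb topEquiv.symm, fun S hS hc => ?_⟩
  rw [coh_pb_iff]
  constructor
  · intro h'
    obtain ⟨ν, hν⟩ := h'.exists_cohWith
    refine ⟨Set.nonempty_iff_ne_empty.2 ?_, ν, hν.congr fun α hα => (e α (zspanOn_mono hS _ hα)).symm⟩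
    rintro rfl
    obtain ⟨α, hα, h0⟩ := h'.1
    exact h0 (by simpa [zspan] using hα.1)
  · rintro ⟨⟨φ, hφ⟩, ν, hν⟩
    exact (hν.congr fun α hα => e α (zspanOn_mono hS _ hα)).isCoherent
      (h.exists_ne_zero hS hφ (hc φ hφ))

theorem exists_cohSys_top' {τ : (L → ℂ) → X → ℂ} {R : (L → ℂ) → Finset (X → ℂ)}
    (h : IsCoherenceSystem (inducedIrrAbove K ⊥) τ R) :
    ∃ (T : ((⊤ : Subgroup L) → ℂ) →ₗ[ℂ] (X → ℂ)) (Q : _), IsCoherenceSystem (seqIndD K ⊤ K ⊥) T Q ∧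
      ∀ A, (IsCoherent (inducedIrrAbove K A) {1}ᶜ τ ↔
        (seqIndD K ⊤ K A).Nonempty ∧ Coh (seqIndD K ⊤ K A) T) := by
  obtain ⟨T, Q, h1, h2⟩ := exists_cohSys_top h
  refine ⟨T, Q, h1, fun A => ?_⟩
  rw [h2 _ (inducedIrrAbove_mono bot_le) fun _ => conj_inducedIrrAbove, ← pb_preimage_inducedIrrAbove]
  exact and_congr_left' ⟨fun ⟨φ, h⟩ => ⟨pb topEquiv.symm.symm φ, by
    rwa [Set.mem_preimage, pb_pb_symm]⟩, fun ⟨φ, h⟩ => ⟨_, h⟩⟩

theorem nilpotent_quo_of_quotient {M H : Subgroup L} [M.Normal] [(M.subgroupOf H).Normal]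
    (h : Group.IsNilpotent (H ⧸ M.subgroupOf H)) : Group.IsNilpotent (quo H M) := by
  obtain ⟨e⟩ := nonempty_im_equiv_quo (H := H) (K := M) (QuotientGroup.mk' (M.subgroupOf H)) le_rfl
    le_norm_of_normal (by rw [kr_mk', subgroupOf_map_subtype, inf_comm M, ← inf_assoc, inf_idem])
  exact Group.nilpotent_of_surjective e.toMonoidHom e.surjective

end Cfsg.Agent.PF
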