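import Cfsg.Agent.PF.S07
import Cfsg.Agent.PF.S06Top

set_option autoImplicit false
set_option linter.unusedSectionVars false
set_option linter.unusedVariables false

namespace Cfsg.Agent.PF

open Subgroup Cfsg.Agent.GT Cfsg.Agent.BG Cfsg.Agent.Char

universe u v w

/-! Feit's coherence theorem for Frobenius groups of arbitrary parity. -/

section
variable {Y : Type w} [Group Y] [Fintype Y] {X : Type v} [Group X] [Fintype X]
  {τ : (Y → ℂ) →ₗ[ℂ] (X → ℂ)} {S : Set (Y → ℂ)}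

theorem irr_sub_cases {a b c d : X → ℂ} (ha : IsIrrCharacter X a) (hb : IsIrrCharacter X b)
    (hc : IsIrrCharacter X c) (hd : IsIrrCharacter X d) (hab : a ≠ b) (hcd : c ≠ d)
    (h : ⟪c - d, a - b⟫ = 1) : (c = a ∧ d ≠ b) ∨ (c ≠ a ∧ d = b) := by
  classical
  rw [ci_sub_left, ci_sub_right, ci_sub_right, hc.ci_eq_ite ha, hc.ci_eq_ite hb, hd.ci_eq_ite ha,
    hd.ci_eq_ite hb] at h
  by_cases h1 : c = a <;> by_cases h2 : d = b
  · subst h1 h2; simp [hab, hab.symm] at h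
  · exact Or.inl ⟨h1, h2⟩
  · exact Or.inr ⟨h1, h2⟩
  · simp only [h1, h2, if_false] at h
    split_ifs at h <;> norm_num at h

theorem coh_irr_of_degree (hi : ∀ χ ∈ S, IsIrrCharacter Y χ)
    (hτ : IsLinearIsometryOn (zspanOn S {1}ᶜ) τ) (hτ1 : ∀ α ∈ zspanOn S {1}ᶜ, τ α 1 = 0)
    (hd : ∀ φ ∈ S, ∀ ψ ∈ S, φ 1 = ψ 1) : Coh S τ := by
  rcases S.eq_empty_or_nonempty with rfl | ⟨χ₀, h₀⟩
  · exact ⟨0, isLinearIsometryOn_zspan 0 (by simp) (by simp), fun α hα => by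
      have : α = 0 := by simpa [zspan] using hα.1
      simp [this]⟩
  suffices ∃ Z : X → ℂ, IsSIrr X Z ∧ ∀ φ ∈ S, φ ≠ χ₀ → ⟪τ (φ - χ₀), Z⟫ = -1 by
    obtain ⟨Z, hZ, h⟩ := this
    obtain ⟨ν, hν, -⟩ := exists_cohWith_pivot τ hτ h₀ (hi _ h₀).apply_one_ne_zero hZ.virt
      (by rw [hZ.ci_self, (hi _ h₀).ci_self]) fun φ hφ => ⟨1, by rw [hd φ hφ χ₀ h₀]; simp, by
        rw [Int.cast_one, one_smul]
        by_cases he : φ = χ₀
        · simp [he, ci_zero_left]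
        · rw [h φ hφ he, ci_sub_left, (hi φ hφ).ci_of_ne (hi _ h₀) he, (hi _ h₀).ci_self]; ring⟩
    exact ⟨ν, hν⟩
  have hm : ∀ φ ∈ S, φ - χ₀ ∈ zspanOn S {1}ᶜ := fun φ hφ =>
    sub_mem_zspanOn_one (mem_zspan_of_mem hφ) (mem_zspan_of_mem h₀) (hd φ hφ χ₀ h₀)
  have hdec : ∀ φ ∈ S, φ ≠ χ₀ → ∃ c d, IsIrrCharacter X c ∧ IsIrrCharacter X d ∧ c ≠ d ∧
      τ (φ - χ₀) = c - d := fun φ hφ he =>
    (hτ.virt (hm φ hφ)).exists_sub_of_nsq_two (by
      rw [hτ.nsq_eq (hm φ hφ), nsq_sub_of_orth ((hi φ hφ).ci_of_ne (hi _ h₀) he), (hi φ hφ).nsq,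
        (hi _ h₀).nsq]; norm_num) (hτ1 _ (hm φ hφ))
  have hci : ∀ φ ∈ S, φ ≠ χ₀ → ∀ ψ ∈ S, ψ ≠ χ₀ → φ ≠ ψ → ⟪τ (φ - χ₀), τ (ψ - χ₀)⟫ = 1 :=
    fun φ hφ he ψ hψ he' hne => by
      rw [hτ.ci_eq (hm φ hφ) (hm ψ hψ), ci_sub_left, ci_sub_right, ci_sub_right,
        (hi φ hφ).ci_of_ne (hi _ hψ) hne, (hi φ hφ).ci_of_ne (hi _ h₀) he,
        (hi _ h₀).ci_of_ne (hi _ hψ) he'.symm, (hi _ h₀).ci_self]
      ring
  choose! c d hc hd' hcd he using hdec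
  by_cases h1 : ∃ χ₁ ∈ S, χ₁ ≠ χ₀
  swap
  · push Not at h1
    exact ⟨_, isIrrCharacter_one.isSIrr, fun φ hφ he => absurd (h1 φ hφ) he⟩
  obtain ⟨χ₁, h₁, hn₁⟩ := h1
  have hcases := fun φ hφ hn ψ hψ hn' (hne : φ ≠ ψ) => irr_sub_cases (hc ψ hψ hn') (hd' ψ hψ hn')
    (hc φ hφ hn) (hd' φ hφ hn) (hcd ψ hψ hn') (hcd φ hφ hn)
    (by rw [← he φ hφ hn, ← he ψ hψ hn']; exact hci φ hφ hn ψ hψ hn' hne)
  by_cases h2 : ∀ φ ∈ S, φ ≠ χ₀ → d φ = d χ₁
  · refine ⟨_, (hd' χ₁ h₁ hn₁).isSIrr, fun φ hφ hn => ?_⟩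
    rw [he φ hφ hn, ← h2 φ hφ hn, ci_sub_left, (hc φ hφ hn).ci_of_ne (hd' φ hφ hn) (hcd φ hφ hn),
      (hd' φ hφ hn).ci_self, zero_sub]
  push Not at h2
  obtain ⟨φ₁, hφ₁, hn₂, h2⟩ := h2
  have h3 : c φ₁ = c χ₁ := by
    rcases hcases φ₁ hφ₁ hn₂ χ₁ h₁ hn₁ (fun h => h2 (by rw [h])) with h | h
    exacts [h.1, absurd h.2 h2]
  refine ⟨_, (hc χ₁ h₁ hn₁).isSIrr.neg, fun φ hφ hn => ?_⟩
  have h4 : c φ = c χ₁ := by
    by_contra h4
    rcases hcases φ hφ hn χ₁ h₁ hn₁ (fun h => h4 (by rw [h])) with h | h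
    · exact h4 h.1
    rcases hcases φ hφ hn φ₁ hφ₁ hn₂ (fun h => h4 (by rw [h, h3])) with h' | h'
    · exact h4 (h'.1.trans h3)
    · exact h2 (h'.2.symm.trans h.2)
  rw [he φ hφ hn, ← h4, ci_neg_right, ci_sub_left, (hc φ hφ hn).ci_self,
    (hd' φ hφ hn).ci_of_ne (hc φ hφ hn) (hcd φ hφ hn).symm, sub_zero]

theorem cohProp_irr (hi : ∀ χ ∈ S, IsIrrCharacter Y χ) (hc : ∀ χ ∈ S, conjFun χ ∈ S)
    (hτ : IsLinearIsometryOn (zspanOn S {1}ᶜ) τ) (hτ1 : ∀ α ∈ zspanOn S {1}ᶜ, τ α 1 = 0) :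
    CohProp S τ where
  fin := finite_setOf_irr.subset hi
  conj := hc
  char χ h := (hi χ h).isCharacter
  step := fun S₁ hS ⟨ν, hν⟩ χ₁ h₁ χ hχ hχ' ⟨a, ha⟩ hlt => by
    classical
    have hi₁ : ∀ φ ∈ S₁, IsIrrCharacter Y φ := fun φ h => hi φ (hS.1 h)
    rw [Finset.sum_congr rfl fun φ h => by rw [(hi₁ φ h).nsq, div_one]] at hlt
    obtain ⟨ν', h', -⟩ := hν.extend_irr hτ hτ1 hS.1 hi₁ hχ (hi χ hχ) hχ' h₁ ha hlt
    by_cases h2 : conjFun χ ∈ insert χ S₁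
    · refine ⟨ν', h'.subset ?_⟩
      rintro φ (h | rfl | rfl)
      exacts [Or.inr h, Or.inl rfl, by simpa using h2]
    rw [← Finset.coe_insert] at h'
    have h3 : conjFun χ 1 = χ 1 := (hi χ hχ).isCharacter.conj_one
    obtain ⟨ν'', h'', -⟩ := h'.extend_irr hτ hτ1
      (by rw [Finset.coe_insert]; exact Set.insert_subset hχ hS.1)
      (fun φ h => (Finset.mem_insert.1 h).elim (fun e => e ▸ hi χ hχ) (hi₁ φ)) (hc χ hχ)
      (hi χ hχ).conjFun h2 (Finset.mem_insert_of_mem h₁) (h3.trans ha)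
      (by rw [h3, Finset.sum_insert hχ']; nlinarith [sq_nonneg (χ 1).re])
    refine ⟨ν'', h''.subset ?_⟩
    rintro φ (h | rfl | rfl)
    · exact Or.inr (by simp [h])
    · exact Or.inr (by simp)
    · exact Or.inl rfl
  unif S₁ hS hd := coh_irr_of_degree (fun χ h => hi χ (hS.1 h)) (hτ.mono (zspanOn_mono hS.1 _))
    (fun α h => hτ1 α (zspanOn_mono hS.1 _ h)) hd

end

variable {G : Type u} [Group G] [Fintype G] {L K H M R Z : Subgroup G}

theorem frobKer_of_cent (hlt : K < L) (h1 : K ≠ ⊥) (hn : L ≤ N[K])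
    (hc : ∀ k ∈ K, k ≠ 1 → L ⊓ C1[k] ≤ K) : FrobKer L K := by
  have hd := relIndex_dvd_pred (K := K) (A := L) (M := ⊥) (H := K) le_norm_of_normal hn
    le_norm_of_normal fun k hk hk1 x hx h => hc k hk (by simpa using hk1) ⟨hx, mem_cent1.2 (by
      rw [mem_bot, mul_inv_eq_one, mul_inv_eq_iff_eq_mul] at h; exact h)⟩
  rw [relIndex_bot_left] at hd
  obtain ⟨R, hR⟩ := (isPiHallOf_piOf hlt.le (coprime_of_dvd_pred Nat.card_pos hd)).exists_sdprod hn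
  refine ⟨R, hR, h1, fun h => hlt.ne (hR.eq_left_iff.2 h), semiregular_iff.2 fun x hx hx1 y hy e => ?_⟩
  by_contra hy1
  exact hx1 (mem_bot.1 (hR.inf_eq ▸ ⟨hc y hy hy1 ⟨hR.right_le hx, mem_cent1.2 e.symm⟩, hx⟩))

theorem frob_dvd_relIndex_pred (h : Frob K R L) (hM : L ≤ N[M]) (hH : L ≤ N[H]) (hHK : H ≤ K) :
    Nat.card R ∣ M.relIndex H - 1 :=
  card_dvd_pred_of_regular (h.sdprod.right_le.trans hM) (h.sdprod.right_le.trans hH)
    ((hHK.trans h.sdprod.left_le).trans hM) fun x hx hx1 y hy =>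
      regular_quo_of_cent h.sdprod (frob_coprime h) hM
        (fun x hx hx1 => (h.reg x hx hx1).le.trans bot_le) x hx hx1 y (hHK hy)

theorem frob_succ_le_relIndex (h : Frob K R L) (hM : L ≤ N[M]) (hH : L ≤ N[H]) (hHK : H ≤ K)
    (hne : ¬ H ≤ M) : Nat.card R + 1 ≤ M.relIndex H := by
  have h1 := one_lt_relIndex hne
  have := Nat.le_of_dvd (by omega) (frob_dvd_relIndex_pred h hM hH hHK)
  omega

theorem frob_comm_of_even (h : Frob K R L) (he : Even (Nat.card R)) : IsMulCommutative K := by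
  obtain ⟨t, ht⟩ := exists_prime_orderOf_dvd_card' (G := R) 2 he.two_dvd
  have hn := h.sdprod.right_norm t.2
  have t1 : (t : G) ≠ 1 := fun e => by
    rw [show t = 1 from Subtype.ext e, orderOf_one] at ht; omega
  have t2 : (t : G) * t = 1 := by
    have := pow_orderOf_eq_one t
    rw [ht, pow_two] at this
    exact congrArg Subtype.val this
  let φ : K →* K := (K.normalizerMonoidHom ⟨t, hn⟩).toMonoidHom
  have hφ : ∀ x : K, (φ x : G) = t * x * (t : G)⁻¹ := fun x => rfl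
  have hf : MonoidHom.FixedPointFree φ := fun x hx => Subtype.ext
    (semiregular_iff.1 h.reg t t.2 t1 x x.2 (by
      have := hφ x
      rw [hx, eq_mul_inv_iff_mul_eq] at this
      exact this))
  refine ⟨⟨fun a b => hf.commute_all_of_involutive (fun x => Subtype.ext ?_) a b⟩⟩
  rw [hφ, hφ]
  calc (t : G) * (t * x * (t : G)⁻¹) * (t : G)⁻¹ = (t * t) * x * (t * t : G)⁻¹ := by group
    _ = x := by rw [t2]; simp

theorem frob_seqIndD_irr (h : FrobKer L K) {φ : L → ℂ} (hφ : φ ∈ seqIndD K L Z M) :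
    IsIrrCharacter L φ := by
  obtain ⟨θ, ⟨h1, h2, -⟩, rfl⟩ := mem_seqIndD.1 hφ
  exact irr_induced_Frobenius_ker h h1 (ne_one_of_not_inKer h2)

variable {X : Type v} [Group X] [Fintype X] {τ : (L → ℂ) →ₗ[ℂ] (X → ℂ)}

/-- Feit's theorem -/
theorem Feit_coherence (h : Frob K R L) (hnil : Group.IsNilpotent K)
    (hS : CohProp (seqIndD K L K ⊥) τ) (hnc : ¬ Coh (seqIndD K L K ⊥) τ) :
    ¬ IsMulCommutative K ∧ Odd (Nat.card R) ∧ ⁅K, K⁆.relIndex K ≤ 4 * Nat.card R ^ 2 + 1 ∧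
      ∃ p : ℕ, p.Prime ∧ IsPGroup p K := by
  have hKL := h.sdprod.left_le
  have hn := h.sdprod.norm
  have hs : Group.IsSolvable K := inferInstance
  have hna : ¬ IsMulCommutative K := fun hc =>
    hnc (hS.coh_der hKL (le_cent_iff_commutator_eq_bot.1 (comm_iff_le_cent.1 hc)).le)
  have ho : Odd (Nat.card R) := Nat.not_even_iff_odd.1 fun he => hna (frob_comm_of_even h he)
  have hd : L ≤ N[⁅K, K⁆] := le_norm_commutator hn hn
  have hdK : ⁅K, K⁆ ≤ K := commutator_le_of_le_norm_left le_normalizer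
  refine ⟨hna, ho, not_lt.1 fun hlt => hnc (hS.bounded hKL hn hs le_norm_of_normal hn hd bot_le
    hdK le_rfl (nilpotent_im hnil) (hS.coh_der hKL le_rfl) (h.sdprod.relIndex ▸ hlt)), ?_⟩
  by_contra hp
  push Not at hp
  refine hnc (coh_of_chief_steps le_norm_of_normal hd (hdK.trans hKL) bot_le
    (hS.coh_der hKL le_rfl) fun A B _ hA hch hc => ?_)
  by_contra hnc'
  have hAK := hA.trans hdK
  obtain ⟨r, hr, -, -, hrA⟩ := hch.elementary (solv_of_le hs hAK)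
  have hQn : L ≤ N[piCoreOf {r}ᶜ K] := le_norm_piCoreOf hn
  have hQK : piCoreOf {r}ᶜ K ≤ K := piCoreOf_le _ _
  have hBK := hch.lt.le.trans hAK
  have hQB : ¬ piCoreOf {r}ᶜ K ≤ B := fun hQB => by
    refine hp r hr ((isPi_of_nil_of_der (π := {r}) hnil ?_).isPGroup hr)
    have h1 := (nil_isPiHallOf_piCoreOf hnil {r}ᶜ).idx
    rw [compl_compl] at h1
    exact h1.of_dvd (relIndex_dvd_of_le_left _ (hQB.trans (hch.lt.le.trans hA)))
  obtain ⟨A₂, h₂, hA₂⟩ := exists_chiefFactor_le (V := B) (U := piCoreOf {r}ᶜ K ⊔ B) (L := L)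
    (lt_of_le_of_ne le_sup_right fun e => hQB (e ▸ le_sup_left)) ((sup_le hQK hBK).trans hKL)
    hch.norm_bot (le_norm_sup hQn hch.norm_bot)
  have hA₂K := h₂.trans (sup_le hQK hBK)
  have hAA : ¬ A₂ ≤ A := fun hle => by
    rcases hch.eq_or_eq hA₂.lt.le hle hA₂.norm_top with e | e
    · exact hA₂.lt.ne' e
    subst e
    have h1 : B.relIndex A₂ ∣ Nat.card (piCoreOf {r}ᶜ K) := by
      refine dvd_trans ?_ (relIndex_dvd_card' B _)
      rw [← relIndex_sup_of_le_norm ((hQK.trans hKL).trans hch.norm_bot),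
        ← relIndex_mul_relIndex B A₂ _ hch.lt.le h₂]
      exact dvd_mul_right _ _
    exact (one_lt_relIndex hch.lt.not_ge).ne' (hrA.eq_one ((piCoreOf_isPi _ K).piNat.of_dvd h1))
  have hc₁ := hch.commutator_le_of_nilpotent (solv_of_le hs hAK) hnil hKL hn
  have hc₂ := hA₂.commutator_le_of_nilpotent (solv_of_le hs hA₂K) hnil hKL hn
  have hD : ⁅A ⊔ A₂, K⁆ ≤ B :=
    PG.commutator_sup_le (hch.le.trans hch.norm_bot) (hA₂.le.trans hch.norm_bot) hc₁ hc₂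
  have hDK : A ⊔ A₂ ≤ K := sup_le hAK hA₂K
  have hDn : L ≤ N[A ⊔ A₂] := le_norm_sup hch.norm_top hA₂.norm_top
  have hKD : ¬ K ≤ A ⊔ A₂ := fun hle =>
    hch.lt.not_ge (hA.trans ((commutator_mono hle le_rfl).trans hD))
  have hb := hS.seqIndD_bound hKL hn hs hch.norm_top hch.norm_bot
    (lt_of_le_of_ne hAK fun e => hKD (e ▸ le_sup_left)) (hch.lt.le.trans le_sup_left) hDK le_rfl hD
    hc hnc'
  have hz := frob_succ_le_relIndex h hch.norm_top hDn hDK fun hle => hAA (le_sup_right.trans hle)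
  have hx := frob_succ_le_relIndex h hDn hn le_rfl hKD
  rw [h.sdprod.relIndex, ← relIndex_mul_relIndex A (A ⊔ A₂) K le_sup_left hDK] at hb
  have he := (one_lt_card_iff_ne_bot _).2 h.compl_ne_bot
  obtain ⟨m, hm⟩ := ho
  generalize (A ⊔ A₂).relIndex K = x at *
  generalize A.relIndex (A ⊔ A₂) = z at *
  generalize Nat.card R = e at *
  have h4 : e * x + 1 ≤ z * x - 1 := by
    have : (e + 1) * x ≤ z * x := Nat.mul_le_mul_right _ hz
    have : (e + 1) * x = e * x + x := by ring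
    omega
  have h5 := Nat.pow_le_pow_left h4 2
  have h6 : 4 * (e ^ 2 * x) ≤ x * (e ^ 2 * x) := Nat.mul_le_mul_right _ (by omega)
  nlinarith

theorem frob_nontrivial_or (h : Frob K R L) (hs : Group.IsSolvable K) :
    (seqIndD K L K ⊥).Nontrivial ∨ (Nat.card (seqIndD K L K ⊥) = 1 ∧
      Nat.card K = Nat.card R + 1 ∧ ∃ p : ℕ, p.Prime ∧ IsElementaryAbelian p K) := by
  have hKL := h.sdprod.left_le
  have hn := h.sdprod.norm
  obtain ⟨φ, hφ, hφ1⟩ := exists_linInd hKL (bot_lt_iff_ne_bot.2 h.ker_ne_bot) le_norm_of_normal hs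
  refine ((seqIndD K L K ⊥).subsingleton_or_nontrivial).symm.imp_right fun hsub => ?_
  have e := hsub.eq_singleton_of_mem hφ
  have h1 := sum_seqIndD_square hKL hn le_rfl hn le_norm_of_normal (bot_le : ⊥ ≤ K)
  have e' : (seqIndD_finite K L K ⊥).toFinset = {φ} := by
    ext ψ; rw [Set.Finite.mem_toFinset, e]; simp
  rw [e', Finset.sum_singleton, (frob_seqIndD_irr h.frobKer hφ).nsq, hφ1, relIndex_self,
    relIndex_bot_left, h.sdprod.relIndex, Complex.natCast_re] at h1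
  have hc : Nat.card K = Nat.card R + 1 := by
    have h2 := card_pos_real R
    have : (Nat.card K : ℝ) = Nat.card R + 1 := by
      push_cast at h1
      nlinarith
    exact_mod_cast this
  refine ⟨by rw [e]; simp, hc, ?_⟩
  have hch : ChiefFactor L ⊥ K := ⟨bot_lt_iff_ne_bot.2 h.ker_ne_bot, hKL, le_norm_of_normal, hn,
    fun W _ h2 h3 => or_iff_not_imp_left.2 fun hW => eq_of_le_of_card_ge h2 (by
      have := frob_succ_le_relIndex h (M := ⊥) le_norm_of_normal h3 h2 (by simpa using hW)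
      rwa [relIndex_bot_left, ← hc] at this)⟩
  obtain ⟨p, hp, h2, h3, -⟩ := hch.elementary hs
  exact ⟨p, hp, comm_iff_le_cent.2 (le_cent_iff_commutator_eq_bot.2 (le_bot_iff.1 h2)),
    fun a ha => mem_bot.1 (h3 a ha)⟩

theorem isCoherent_of_coh {Y : Type w} [Group Y] [Fintype Y] {S : Set (Y → ℂ)}
    {τ : (Y → ℂ) → X → ℂ} (hi : ∀ χ ∈ S, IsIrrCharacter Y χ) (h2 : S.Nontrivial) (h : Coh S τ) :
    IsCoherent S {1}ᶜ τ :=
  let ⟨_, hν⟩ := h
  let ⟨χ, hχ, φ, hφ, hne⟩ := h2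
  hν.isCoherent (exists_ne_zero_of_irr hχ hφ (hi χ hχ) (hi φ hφ) hne)

theorem cohProp_TI (h : FrobKer L K) (hTI : NormedTI (sharp K) ⊤ L) :
    CohProp (seqIndD K L K ⊥) (dadeL (sharp K) L fun _ => ⊥) := by
  have hD := dade_of_normedTI hTI
  have hKL := dade_sharp_le hD
  exact cohProp_irr (fun _ => frob_seqIndD_irr h) (fun _ => conj_seqIndD)
    (dade_isometry_zspan hD (fun _ h => seqIndT_char hKL (seqIndD_subset_T h))
      fun _ h => (seqIndT_on hKL (dade_sharp_norm hD) (seqIndD_subset_T h)).insert_sharp)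
    fun α _ => hD.dade_one α

theorem coh_indFun_of_TI (hTI : NormedTI (sharp K) ⊤ L)
    (h : Coh (seqIndD K L Z M) (dadeL (sharp K) L fun _ => ⊥)) :
    Coh (seqIndD K L Z M) fun α => indFun L α :=
  let ⟨ν, hν⟩ := h
  ⟨ν, hν.congr fun α hα => dadeL_bot_eq_indFun hTI (dade_sharp_le (dade_of_normedTI hTI))
    (zspanOn_mono seqIndD_subset_T _ hα)⟩

theorem setOf_irr_eq_seqIndD (h : FrobKer L K) (hZ : L ≤ N[Z]) (hZK : Z ≤ K) :
    {χ : L → ℂ | IsIrrCharacter L χ ∧ ∃ z : L, (z : G) ∈ Z ∧ χ z ≠ χ 1} = seqIndD K L Z ⊥ := by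
  obtain ⟨R, hR⟩ := h
  rw [seqIndD_eq_irr hR.sdprod.left_le hR.sdprod.norm hZ hZK fun _ => frob_seqIndD_irr hR.frobKer]
  ext χ
  simp only [InKer, Set.mem_ofPred_eq, not_forall, exists_prop]

/-- the Feit–Sibley theorem -/
theorem Feit_Sibley (h : Frob K R L) (hnil : Group.IsNilpotent K) (hTI : NormedTI (sharp K) ⊤ L) :
    Coh (seqIndD K L K ⊥) (fun α => indFun L α) ∨
      (IsPGroup 2 K ∧ Odd (Nat.card R) ∧ ⁅K, K⁆.relIndex K < 4 * Nat.card R ^ 2) := by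
  by_cases hc : Coh (seqIndD K L K ⊥) (dadeL (sharp K) L fun _ => ⊥)
  · exact Or.inl (coh_indFun_of_TI hTI hc)
  obtain ⟨hna, ho, hb, p, hp, hK⟩ := Feit_coherence h hnil (cohProp_TI h.frobKer hTI) hc
  haveI := Fact.mk hp
  obtain ⟨n, hn⟩ := PG.exists_card_eq_pow hK
  obtain rfl : p = 2 := by
    by_contra hp2
    refine hc (Sibley_coherence_dade ?_ hnil hTI (Or.inl h))
    rw [← h.sdprod.card_mul, hn]
    exact (hp.odd_of_ne_two hp2).pow.mul ho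
  refine Or.inr ⟨hK, ho, ?_⟩
  obtain ⟨k, -, hk⟩ := (Nat.dvd_prime_pow hp).1 (hn ▸ relIndex_dvd_card' ⁅K, K⁆ K)
  have he := (one_lt_card_iff_ne_bot _).2 h.compl_ne_bot
  rw [hk] at hb ⊢
  rcases (show 2 ^ k < 4 * Nat.card R ^ 2 ∨ 2 ^ k = 4 * Nat.card R ^ 2 ∨
    2 ^ k = 4 * Nat.card R ^ 2 + 1 by omega) with h1 | h1 | h1
  · exact h1
  · have : Nat.card R ∣ 2 ^ k := by rw [h1]; exact Dvd.intro_left (4 * Nat.card R) (by ring)
    exact absurd (Nat.Coprime.eq_one_of_dvd ((Nat.coprime_two_right.2 ho).pow_right k) this) he.ne'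
  · rcases k with _ | k
    · have := Nat.pow_pos (n := 2) (Nat.card_pos (α := R))
      omega
    · rw [pow_succ] at h1; omega

end Cfsg.Agent.PF
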